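import Cfsg.Agent.H23.OB2

/-! Odd transpositions: the group generated by a commuting class and an odd partner. -/

set_option autoImplicit false

namespace Cfsg.Agent.H24.OT

open Subgroup H23.RI

universe u

variable {G : Type u} [Group G] {D : Set G} {a b c d e g s t t' u x y z : G}

/-- same commuting members -/
def Sm (D : Set G) (a b : G) : Prop := ∀ e ∈ D, e * a = a * e ↔ e * b = b * e

theorem Sm.refl (a : G) : Sm D a a := fun _ _ => Iff.rfl

theorem Sm.symm (h : Sm D a b) : Sm D b a := fun e he => (h e he).symm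

theorem Sm.trans (h : Sm D a b) (h' : Sm D b c) : Sm D a c := fun e he => (h e he).trans (h' e he)

theorem Sm.co (h : Sm D a b) (ha : a ∈ D) : a * b = b * a := (h a ha).1 rfl

theorem co_conj : e * (g * a * g⁻¹) = g * a * g⁻¹ * e ↔ g⁻¹ * e * g⁻¹⁻¹ * a = a * (g⁻¹ * e * g⁻¹⁻¹) := by
  rw [← mul_right_inj g⁻¹, ← mul_left_inj g]
  simp [mul_assoc]

theorem mem_same : e ∈ sameCommutingClass D d ↔ e ∈ D ∧ Sm D d e :=
  and_congr_right' ⟨fun h f hf => by simpa [commutingMembers, hf] using Set.ext_iff.1 h f,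
    fun h => Set.ext fun f => and_congr_right (h f)⟩

theorem nrm [Finite G] {S : Set G} (h : ∀ s ∈ S, g * s * g⁻¹ ∈ closure S) : g ∈ 𝐍[closure S] :=
  mem_normalizer_of_cj_le (by
    rw [cj, MonoidHom.map_closure, closure_le]
    rintro _ ⟨s, hs, rfl⟩
    exact h s hs)

theorem co_of_sq (ho : Odd (orderOf x)) (h : y * (x * x) = x * x * y) : y * x = x * y := by
  obtain ⟨m, hm⟩ := ho
  have := (Commute.pow_right h (m + 1)).eq
  rwa [← pow_two, ← pow_mul, show 2 * (m + 1) = orderOf x + 1 by omega, pow_succ, pow_orderOf_eq_one, one_mul] at this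

section

variable (hD : IsOddTranspositionSet D)
include hD

theorem two (ha : a ∈ D) (hb : b ∈ D) : a * b = b * a ∨ Od a b :=
  (tri hD.1 ha hb).imp_right fun h => h.resolve_right (hD.2 a ha b hb)

theorem Sm.conj (h : Sm D a b) (g : G) : Sm D (g * a * g⁻¹) (g * b * g⁻¹) := fun e he => by
  rw [co_conj, co_conj]; exact h _ (hD.1.conj_mem e he _)

theorem Sm.od (h : Sm D a b) (ha : a ∈ D) (hb : b ∈ D) (hx : x ∈ D) (ho : Od a x) : Od b x :=
  (two hD hb hx).resolve_left fun e => ho.not_co hD.1 ha hx ((h x hx).2 e.symm).symm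

theorem co_of_mul (ha : a ∈ D) (hb : b ∈ D) (hn : a ≠ b) (hc : a * b = b * a) (hx : x ∈ D)
    (h : x * (a * b) = a * b * x) : x * a = a * x :=
  ((two hD ha hx).resolve_right fun ho => key' hD.1 ha hx ho ((cm_eq_one_iff hD.1 ha hb).2 hc)
    (mul_ne_one hD.1 ha hn) (by rw [mul_assoc, ← hc]) h.symm (by rwa [mul_assoc, ← hc, mm hD.1 ha])).symm

theorem sm_of_xx (h : XX D a b) : Sm D a b := fun e he =>
  ⟨fun h1 => ((two hD h.r he).resolve_right fun ho => h.symm.not_co hD.1 he ho h1.symm).symm,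
    fun h1 => ((two hD h.l he).resolve_right fun ho => h.not_co hD.1 he ho h1.symm).symm⟩

/-- the product of two members of a commuting class has the same commuting members -/
theorem sm_mul (ht : t ∈ D) (ht' : t' ∈ D) (h : Sm D t t') (hn : t ≠ t') : Sm D t (t * t') := fun e he =>
  ⟨fun h1 => Commute.mul_right h1 ((h e he).1 h1), co_of_mul hD ht ht' hn (h.co ht) he⟩

theorem exists_swap (hd : d ∈ D) (hx : x ∈ D) (h : Od d x) :
    ∃ s ∈ D, s ∈ closure {d, x} ∧ s * d * s = x ∧ Od d s := by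
  have ho := h.symm.2
  obtain ⟨m, hm⟩ := H11.exists_sq_eq_of_odd ho
  obtain ⟨k, hk⟩ := H11.exists_sq_eq_of_odd (H11.odd_orderOf_pow ho m)
  have h1 : SemiconjBy d (x * d) (x * d)⁻¹ := by
    rw [SemiconjBy, mul_inv_rev, iv hD.1 hd, iv hD.1 hx, mul_assoc]
  have h3 := (h1.pow_right m).pow_right k
  have h4 := H11.odd_orderOf_pow (H11.odd_orderOf_pow ho m) k
  have h5 : ((x * d) ^ m) ^ k ∈ closure {d, x} :=
    pow_mem (pow_mem (mul_mem (subset_closure (by simp)) (subset_closure (by simp))) m) k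
  rw [inv_pow, inv_pow] at h3
  rw [← hk] at hm
  generalize ((x * d) ^ m) ^ k = w at h3 h4 hm h5
  have e : w * d * w⁻¹ = w * w * d := by rw [mul_assoc, h3.inv_right.eq, inv_inv, mul_assoc]
  have e2 : w * w * d * d * (w * w * d) = x := by
    rw [mul_assoc (w * w), sq hD.1 hd, mul_one, ← mul_assoc, ← pow_two, ← pow_two, hm, mul_assoc, sq hD.1 hd, mul_one]
  refine ⟨w * w * d, e ▸ hD.1.conj_mem d hd w, mul_mem (mul_mem h5 h5) (subset_closure (by simp)), e2,
    fun e3 => h.1 (by rw [← e2, ← e3, sq hD.1 hd, one_mul]), ?_⟩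
  rw [orderOf_swap, mul_assoc, sq hD.1 hd, mul_one, ← pow_two]
  exact H11.odd_orderOf_pow h4 2

/-- an element commuting with `x` and `c x c` commutes with `c` -/
theorem co_of_od (hc : c ∈ D) (hx : x ∈ D) (h : Od c x) (h1 : y * x = x * y) (h2 : y * (c * x * c) = c * x * c * y) :
    y * c = c * y := by
  have h3 : Commute y (c * x) := co_of_sq h.2 (by
    simpa only [mul_assoc] using (Commute.mul_right h2 h1).eq)
  simpa only [mul_assoc, sq hD.1 hx, mul_one] using (h3.mul_right h1).eq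

end

/-- `G` is generated by the commuting class of `d` and an odd partner, and has trivial `2`-core -/
structure Gn (D : Set G) (d x : G) : Prop where
  ot : IsOddTranspositionSet D
  hd : d ∈ D
  hx : x ∈ D
  od : Od d x
  gen : closure ({t | t ∈ D ∧ Sm D d t} ∪ {x}) = ⊤
  o2 : pCore 2 G = ⊥

namespace Gn

variable (h : Gn D d x)
include h

theorem le {K : Subgroup G} (h1 : ∀ t ∈ D, Sm D d t → t ∈ K) (h2 : x ∈ K) : K = ⊤ :=
  top_le_iff.1 (h.gen ▸ (closure_le K).2 (Set.union_subset (fun t ht => h1 t ht.1 ht.2) (by simpa using h2)))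

theorem zc (hu : u * u = 1) (h1 : ∀ t ∈ D, Sm D d t → t * u = u * t) (h2 : x * u = u * x) : u = 1 := by
  have e := h.le (K := centralizer {u}) (fun t ht hs => mem_centralizer_singleton_iff.2 (h1 t ht hs))
    (mem_centralizer_singleton_iff.2 h2)
  haveI : (zpowers u).Normal := normal_of_forall_cj_le fun g => by
    rw [cj_zpowers, mem_centralizer_singleton_iff.1 (e.ge (mem_top g)), mul_inv_cancel_right]
  exact mem_bot.1 (h.o2.le (le_pCore (isPGroup_zpowers (k := 1) (by simpa [pow_two] using hu)) (mem_zpowers u)))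

theorem alt (hz : z * z = 1) (h1 : ∀ t ∈ D, Sm D d t → t * z = z * t) (h2 : ∀ s ∈ D, s * z = z * s → s * d = d * s) :
    x * (z * x * z) = z * x * z * x ∨ z ∈ D := by
  have i := inv_eq_of_mul_eq_one_right hz
  refine (two h.ot h.hx (by simpa only [i] using h.ot.1.conj_mem x h.hx z)).imp_right fun ho => ?_
  obtain ⟨w, s, e, s1, s2⟩ := mid (sq h.ot.1 h.hx) hz ho.2
  have hs : s ∈ D := e ▸ h.ot.1.conj_mem x h.hx w
  have := h.zc (u := s * z) (by rw [mul_assoc, ← mul_assoc z, ← s1, mul_assoc, hz, mul_one, sq h.ot.1 hs])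
    (fun t ht hs' => Commute.mul_right ((hs' s hs).1 (h2 s hs s1)).symm (h1 t ht hs')) (by
      rw [← mul_right_inj s, ← mul_assoc, ← mul_assoc, s2]
      simp only [mul_assoc, hz, mul_one, mm h.ot.1 hs])
  rw [← eq_inv_iff_mul_eq_one, i] at this
  exact this ▸ hs

theorem swap : ∃ s ∈ D, s * d * s = x ∧ Gn D d s := by
  obtain ⟨s, hs, -, e, ho⟩ := exists_swap h.ot h.hd h.hx h.od
  have m : s ∈ closure ({t | t ∈ D ∧ Sm D d t} ∪ {s}) := subset_closure (Or.inr rfl)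
  exact ⟨s, hs, e, h.ot, h.hd, hs, ho, h.le (fun t ht hs => subset_closure (Or.inl ⟨ht, hs⟩))
    (e ▸ mul_mem (mul_mem m (subset_closure (Or.inl ⟨h.hd, .refl d⟩))) m), h.o2⟩

theorem symm : Gn D x d := by
  obtain ⟨s, hs, e, -⟩ := h.swap
  have i := iv h.ot.1 hs
  refine ⟨h.ot, h.hx, h.hd, h.od.symm, ?_, h.o2⟩
  rw [← (map_injective (f := (MulAut.conj s).toMonoidHom) (MulAut.conj s).injective).eq_iff,
    map_top_of_surjective _ (MulAut.conj s).surjective]
  refine h.le (fun t ht h1 => ⟨s * t * s⁻¹, subset_closure (Or.inl ⟨h.ot.1.conj_mem t ht s, ?_⟩), ?_⟩)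
    ⟨d, subset_closure (Or.inr rfl), by simp [i, e]⟩
  · simpa only [i, e] using h1.conj h.ot s
  · simp [i, mul_assoc, sq h.ot.1 hs, mm h.ot.1 hs]

theorem sm (ht : t ∈ D) (ht' : t' ∈ D) (h1 : Sm D d t) (h2 : Sm D d t') (hn : t * t' ∉ D) :
    Sm D x (t * t' * x * (t * t')⁻¹) := by
  by_cases e0 : t = t'
  · simpa [e0, sq h.ot.1 ht'] using Sm.refl x
  obtain ⟨s, hs, e, h'⟩ := h.swap
  have i := iv h.ot.1 hs
  have h3 := h1.trans (sm_mul h.ot ht ht' (h1.symm.trans h2) e0)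
  have h4 : t * t' * (t * t') = 1 := (cm_eq_one_iff h.ot.1 ht ht').2 ((h1.symm.trans h2).co ht)
  have h5 := (h'.alt h4 (fun r hr h6 => (h3 r hr).1 (h6.co h.hd).symm) fun r hr => (h3 r hr).2).resolve_right hn
  have h6 := h3.conj h.ot s
  generalize t * t' = a at *
  have h7 : a * (s * a * s⁻¹) * a⁻¹ = s * a * s⁻¹ := by
    rw [i, inv_eq_of_mul_eq_one_right h4]
    simpa only [← mul_assoc, h4, one_mul] using congrArg (a * ·) h5
  have h8 := h6.conj h.ot a
  rw [h7] at h8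
  simpa only [i, e] using h6.trans h8.symm

theorem xx [Finite G] (ht : t ∈ D) (h1 : Sm D d t) (hn : d ≠ t) : ∃ a b, Sm D d a ∧ XX D a b := by
  by_contra! h0
  have n : ∀ {d x}, Gn D d x → (∀ a b, Sm D d a → ¬ XX D a b) → ∀ a ∈ D, ∀ b ∈ D, Sm D d a → Sm D d b → a * b ∉ D :=
    fun h h0 a ha b hb h1 h2 hm => h0 a b h1 ⟨ha, hb, fun e => n1 h.ot.1 hm (by rw [e, sq h.ot.1 hb]),
      (h1.symm.trans h2).co ha, hm⟩
  obtain ⟨s, hs, e, -⟩ := h.swap
  have i := iv h.ot.1 hs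
  have h0' : ∀ a b, Sm D x a → ¬ XX D a b := fun a b h1 h2 => h0 _ _ (by
    simpa only [← e, i, mul_assoc, sq h.ot.1 hs, mm h.ot.1 hs, mul_one] using h1.conj h.ot s) (h2.conj h.ot.1 s)
  let S : G → Set G := fun d => {g | ∃ a ∈ D, ∃ b ∈ D, Sm D d a ∧ Sm D d b ∧ g = a * b}
  have p : ∀ d, IsPGroup 2 (closure (S d)) := fun d => (isPGroup_closure h.ot.1 (T := {t | t ∈ D ∧ Sm D d t})
    (fun _ h => h.1) (fun a ha b hb => by rwa [cj_of_co h.ot.1 ha.1 ((hb.2.symm.trans ha.2).co hb.1)])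
      fun a ha b hb ho => ho.not_co h.ot.1 ha.1 hb.1 ((ha.2.symm.trans hb.2).co ha.1)).to_le ((closure_le _).2 (by
        rintro _ ⟨a, ha, b, hb, h1, h2, rfl⟩
        exact mul_mem (subset_closure ⟨ha, h1⟩) (subset_closure ⟨hb, h2⟩)))
  have k : ∀ {d x}, Gn D d x → (∀ a b, Sm D d a → ¬ XX D a b) → ∀ g ∈ S d, ∀ y ∈ D, Sm D x y →
      g * y * g⁻¹ ∈ D ∧ Sm D x (g * y * g⁻¹) := by
    rintro d x h h0 _ ⟨a, ha, b, hb, h1, h2, rfl⟩ y hy h3
    exact ⟨h.ot.1.conj_mem y hy _, (h.sm ha hb h1 h2 (n h h0 a ha b hb h1 h2)).trans (h3.conj h.ot _)⟩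
  have l : ∀ {d x}, Gn D d x → (∀ a b, Sm D x a → ¬ XX D a b) → ∀ t ∈ D, Sm D d t → t ∈ 𝐍[closure (S d ∪ S x)] :=
    fun {d x} h h0 t ht h1 => nrm (by
      rintro g (⟨a, ha, b, hb, h2, h3, rfl⟩ | hg)
      · rw [(Commute.mul_right ((h1.symm.trans h2).co ht) ((h1.symm.trans h3).co ht)).eq, mul_inv_cancel_right]
        exact subset_closure (Or.inl ⟨a, ha, b, hb, h2, h3, rfl⟩)
      · obtain ⟨h2, h3⟩ := k h.symm h0 g hg t ht h1
        rw [show t * g * t⁻¹ = (g * t * g⁻¹ * t⁻¹)⁻¹ * (g * (t * t) * g⁻¹)⁻¹⁻¹ * g * (t * t)⁻¹ by group,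
          sq h.ot.1 ht, iv h.ot.1 ht]
        simpa using (closure (S d ∪ S x)).mul_mem (inv_mem (Subgroup.subset_closure (Or.inl ⟨_, h2, t, ht, h3, h1, rfl⟩)))
          (Subgroup.subset_closure (Or.inr hg)))
  haveI : (closure (S d ∪ S x)).Normal := normalizer_eq_top_iff.1 (h.le (l h h0')
    (Set.union_comm _ _ ▸ l h.symm h0 x h.hx (.refl x)))
  have q : IsPGroup 2 (closure (S d ∪ S x)) := by
    rw [Subgroup.closure_union]
    refine (p d).to_sup_of_normal_right' (p x) ((closure_le _).2 fun g hg => nrm ?_)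
    rintro _ ⟨a, ha, b, hb, h2, h3, rfl⟩
    obtain ⟨h4, h5⟩ := k h h0 g hg a ha h2
    obtain ⟨h6, h7⟩ := k h h0 g hg b hb h3
    exact subset_closure ⟨_, h4, _, h6, h5, h7, (conj_mul' ..).symm⟩
  exact mul_ne_one h.ot.1 h.hd hn (h.o2.le (le_pCore q (subset_closure (Or.inl ⟨d, h.hd, t, ht, .refl d, h1, rfl⟩))))

theorem sm_of_co (h1 : Sm D d a) (h2 : XX D a b) (he : e ∈ D) (hc : e * d = d * e) : Sm D d e := by
  by_contra hn
  have h3 := h1.trans (sm_of_xx h.ot h2)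
  have k : ∀ t ∈ D, Sm D d t → x * (t * e * x * (t * e)) = t * e * x * (t * e) * x := fun t ht h4 => by
    have n : t ≠ e := fun e => hn (e ▸ h4)
    have c := ((h4 e he).1 hc).symm
    exact (h.alt ((cm_eq_one_iff h.ot.1 ht he).2 c) (fun r hr h5 => Commute.mul_right ((h5.symm.trans h4).co hr)
      ((h5 e he).1 hc).symm) fun r hr h5 => (h4 r hr).2 (co_of_mul h.ot ht he n c hr h5)).resolve_right
      fun hm => hn (h4.trans (sm_of_xx h.ot ⟨ht, he, n, c, hm⟩))
  have h4 := h1.trans (sm_of_xx h.ot (h2.third h.ot.1))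
  have ho := h4.od h.ot h.hd h2.mul h.hx h.od
  have ca := (h1 e he).1 hc
  have cb := (h3 e he).1 hc
  have h5 := co_of_od h.ot h2.mul h.hx ho (k a h2.l h1).symm (by
    simpa only [mul_assoc, mm h.ot.1 h2.l, mm h.ot.1 h2.r, sq h.ot.1 h2.l, sq h.ot.1 h2.r, mul_one, cl ca, cl cb, ca, cb,
      cl h2.co.symm, h2.co.symm, mm h.ot.1 he, sq h.ot.1 he] using
      congrArg (a * e * b * e * · * (a * e * b * e)) (k b h2.r h3).symm)
  refine ho.not_co h.ot.1 h2.mul h.hx ?_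
  simpa only [mul_assoc, mm h.ot.1 h2.l, mm h.ot.1 h2.r, sq h.ot.1 h2.l, sq h.ot.1 h2.r, mul_one, cl ca, cl cb, ca, cb,
      cl h2.co.symm, h2.co.symm, mm h.ot.1 he, sq h.ot.1 he] using congrArg (a * e * · * (a * e)) h5.symm

theorem bl (hc : Cl D) (h1 : Sm D d a) (h2 : XX D a b) : Bl D (Sm D) :=
  ⟨Sm.refl, Sm.symm, Sm.trans, fun h' g => h'.conj h.ot g, fun u hu v hv hn => (two h.ot hu hv).resolve_left fun e => by
    obtain ⟨g, rfl⟩ := hc d h.hd u hu
    simpa [mul_assoc] using hn (by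
      simpa [mul_assoc] using (h.sm_of_co h1 h2 (h.ot.1.conj_mem v hv g⁻¹) (co_conj.1 e.symm)).conj h.ot g),
    d, h.hd, x, h.hx, fun e => h.od.not_co h.ot.1 h.hd h.hx (e.co h.hd)⟩

end Gn

end Cfsg.Agent.H24.OT
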