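import Cfsg.Agent.H24.OT1
import Cfsg.Agent.S0206
import Cfsg.Agent.H25.AbInv
import Cfsg.Agent.H15.Sz4
import Cfsg.Agent.H12.SBridge

/-! Odd transpositions: identification of the group generated by a commuting class and an odd partner. -/

set_option autoImplicit false

namespace Cfsg.Agent.H24.OT

open Subgroup H23.RI Module Matrix
open scoped commutatorElement

universe u

section lin

variable {F V : Type*} [Field F] [AddCommGroup V] [Module F V] [FiniteDimensional F V] (hV : finrank F V = 3)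
include hV

theorem rk_le {N : End F V} (h : N * N = 0) : finrank F (LinearMap.range N) ≤ 1 ∧ 2 ≤ finrank F (LinearMap.ker N) := by
  have h1 := N.finrank_range_add_finrank_ker
  have h2 := Submodule.finrank_mono (LinearMap.range_le_ker_iff.2 h)
  omega

theorem common_ker {f : V → V → F} (h0 : ∀ w, f 0 w = 0) (nd : ∀ u, (∀ w, f u w = 0) → u = 0) {S : Set (End F V)}
    (sa : ∀ N ∈ S, ∀ u v, f (N u) v = f u (N v)) (co : ∀ N ∈ S, ∀ N' ∈ S, N * N' = N' * N) (z : ∀ N ∈ S, N * N = 0)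
    {M : End F V} (hM : M * M = 0) : ∃ v ≠ 0, (∀ N ∈ S, N v = 0) ∧ M v = 0 := by
  have p : ∀ {N : End F V}, N ≠ 0 → 1 ≤ finrank F (LinearMap.range N) := fun h =>
    Submodule.one_le_finrank_iff.2 (mt LinearMap.range_eq_bot.1 h)
  have m : ∀ N ∈ S, ∀ N' ∈ S, LinearMap.range N ≤ LinearMap.ker N' := fun N h N' h' =>
    LinearMap.range_le_ker_iff.2 (by_contra fun e => e (LinearMap.range_le_ker_iff.1 (
      (Submodule.eq_of_le_of_finrank_le ((congrArg LinearMap.range (co N' h' N h)).trans_le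
        (LinearMap.range_comp_le_range N' N)) ((rk_le hV (z N h)).1.trans (p e))).ge.trans
          ((LinearMap.range_comp_le_range N N').trans (LinearMap.range_le_ker_iff.2 (z N' h'))))))
  obtain ⟨K, k1, k2⟩ : ∃ K : Submodule F V, 2 ≤ finrank F K ∧ ∀ N ∈ S, K ≤ LinearMap.ker N := by
    by_cases e : ∀ N ∈ S, N = 0
    · exact ⟨⊤, by rw [finrank_top]; omega, fun N h => by simp [e N h]⟩
    push Not at e
    obtain ⟨N₀, h₀, n₀⟩ := e
    refine ⟨_, (rk_le hV (z N₀ h₀)).2, fun N h => ?_⟩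
    by_cases l : LinearMap.range N ≤ LinearMap.range N₀
    · refine fun v hv => nd _ fun w => ?_
      obtain ⟨w', e⟩ := l ⟨w, rfl⟩
      rw [sa N h, ← e, ← sa N₀ h₀, LinearMap.mem_ker.1 hv, h0]
    · have h1 := Submodule.finrank_lt_finrank_of_lt (left_lt_sup.2 l)
      have h2 := N₀.finrank_range_add_finrank_ker
      have h3 := p n₀
      exact (Submodule.eq_of_le_of_finrank_le (sup_le (m _ h₀ _ h₀) (m _ h _ h₀)) (by omega)).ge.trans
        (sup_le (m _ h₀ _ h) (m _ h _ h))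
  have h1 := Submodule.finrank_sup_add_finrank_inf_eq K (LinearMap.ker M)
  have h2 := Submodule.finrank_le (K ⊔ LinearMap.ker M)
  have h3 := (rk_le hV hM).2
  obtain ⟨v, hv, v0⟩ := Submodule.exists_mem_ne_zero_of_ne_bot
    (Submodule.one_le_finrank_iff.1 (by omega : 1 ≤ finrank F ↥(K ⊓ LinearMap.ker M)))
  exact ⟨v, v0, fun N h => k2 N h hv.1, hv.2⟩

end lin

theorem commutator_le_of_map {G : Type*} [Group G] {K : Subgroup G} (h : K.map (QuotientGroup.mk' (center G)) = ⊤) :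
    commutator G ≤ K := by
  have k : ∀ g, ∃ a ∈ K, ∃ z ∈ center G, g = a * z := fun g => by
    obtain ⟨a, ha, e⟩ := h.ge (mem_top (QuotientGroup.mk' (center G) g))
    exact ⟨a, ha, _, QuotientGroup.eq.1 e, by group⟩
  refine commutator_le.2 fun g _ g' _ => ?_
  obtain ⟨a, ha, z, hz, rfl⟩ := k g
  obtain ⟨b, hb, w, hw, rfl⟩ := k g'
  rw [show ⁅a * z, b * w⁆ = a * (z * (b * w) * z⁻¹) * a⁻¹ * w⁻¹ * b⁻¹ by group, ← mem_center_iff.1 hz,
    mul_inv_cancel_right, mul_assoc _ a⁻¹, mem_center_iff.1 (inv_mem hw), ← mul_assoc, ← mul_assoc,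
    mul_inv_cancel_right]
  exact mul_mem (mul_mem (mul_mem ha hb) (inv_mem ha)) (inv_mem hb)

theorem not_gen_psu {F : Type} [Field F] [Fintype F] {n : ℕ} (hn : 2 ≤ n) (hF : Fintype.card F = (2 ^ n) ^ 2)
    {T : Set (PSU 3 F (2 ^ n))} (h1 : ∀ t ∈ T, t * t = 1) (h2 : ∀ t ∈ T, ∀ t' ∈ T, t * t' = t' * t)
    {x : PSU 3 F (2 ^ n)} (hx : x * x = 1) : closure (T ∪ {x}) ≠ ⊤ := fun h => by
  haveI := H11.charP_two_of_card (hF.trans (pow_mul 2 n 2).symm)
  have h4 : 2 ^ 2 ≤ 2 ^ n := Nat.pow_le_pow_right two_pos hn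
  generalize 2 ^ n = q at *
  let π := QuotientGroup.mk' (center (SU 3 F q))
  have z3 : ∀ z, π z = 1 → z ^ 3 = 1 := fun z hz => orderOf_dvd_iff_pow_eq_one.1
    ((orderOf_dvd_natCard _ ((QuotientGroup.eq_one_iff z).1 hz)).trans (by
      rw [H12.card_center_SU hF (by omega)]; exact Nat.gcd_dvd_left _ _))
  have li : ∀ t, t * t = 1 → ∃ g, g * g = 1 ∧ π g = t := fun t ht => by
    obtain ⟨g, rfl⟩ := QuotientGroup.mk'_surjective _ t
    exact ⟨g ^ 3, by rw [← Commute.mul_pow (.refl g), z3 _ (by rw [map_mul, ht])], by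
      rw [map_pow, pow_succ, pow_two, ht, one_mul]⟩
  let L : SU 3 F q →* End F (Fin 3 → F) := (toLinAlgEquiv' (R := F) (n := Fin 3)).toMonoidHom.comp
    ((slToMat 3 F).comp (SU 3 F q).subtype)
  have sq0 : ∀ g, g * g = 1 → (L g - 1) * (L g - 1) = 0 := fun g hg => by
    rw [sub_mul, mul_sub, ← map_mul, hg, map_one, one_mul, mul_one]
    ext1 v; ext i
    simp [CharTwo.sub_eq_add, CharTwo.add_self_eq_zero, add_comm]
  obtain ⟨y, y1, rfl⟩ := li x hx
  obtain ⟨v, v0, v1, v2⟩ := common_ker (F := F) (by simp) (f := hermForm 3 F q) (fun w => by simp [hermForm])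
    (fun u hu => funext fun i => by
      simpa [hermForm, Pi.single_apply, show q ≠ 0 by omega] using hu (Pi.single i 1))
    (S := {N | ∃ g, g * g = 1 ∧ π g ∈ T ∧ N = L g - 1}) (by
      rintro _ ⟨g, hg, -, rfl⟩ u w
      have e : hermForm 3 F q (L g (L g u)) (L g w) = hermForm 3 F q (L g u) w := g.2 _ _
      rw [← End.mul_apply, ← map_mul, hg, map_one, End.one_apply] at e
      have s := fun a b => map_sub (H12.frobq hF) a b
      simp only [H12.frobq_apply] at s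
      simp only [hermForm, LinearMap.sub_apply, End.one_apply, Pi.sub_apply, s, sub_mul, mul_sub,
        Finset.sum_sub_distrib] at e ⊢
      rw [e]) (by
      rintro _ ⟨g, hg, g1, rfl⟩ _ ⟨k, hk, k1, rfl⟩
      have c : π (g * k * (g * k)) = 1 := by
        rw [map_mul, map_mul, mul_assoc, ← mul_assoc (π k), ← h2 _ g1 _ k1, mul_assoc, h1 _ k1, mul_one, h1 _ g1]
      have c2 := mem_center_iff.1 ((QuotientGroup.eq_one_iff _).1 c) g
      have i := inv_eq_of_mul_eq_one_right hg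
      have j := inv_eq_of_mul_eq_one_right hk
      have c3 : (g * k * (g * k)) ^ 2 = 1 := by
        rw [pow_two, mul_eq_one_iff_eq_inv, ← mul_right_inj g, c2]
        simp only [_root_.mul_inv_rev, i, j, mul_assoc, hg, mul_one]
      have c4 : g * k = k * g := by
        have := z3 _ c
        rwa [pow_succ, c3, one_mul, mul_eq_one_iff_eq_inv, _root_.mul_inv_rev, i, j] at this
      exact ((Commute.map c4 L).sub_right (.one_right _)).sub_left (.one_left _))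
    (by rintro _ ⟨g, hg, -, rfl⟩; exact sq0 g hg) (sq0 y y1)
  let K : Subgroup (SU 3 F q) := (MulAction.stabilizer (End F (Fin 3 → F))ˣ v).comap L.toHomUnits
  have k : ∀ g, g ∈ K ↔ L g v = v := fun g => Iff.rfl
  have e := (H12.commutator_SU hF le_rfl (by omega)).ge.trans (commutator_le_of_map (K := K) (top_le_iff.1
    (h ▸ (closure_le _).2 (Set.union_subset (fun t ht => by
      obtain ⟨g, g1, rfl⟩ := li t (h1 t ht)
      exact ⟨g, (k g).2 (sub_eq_zero.1 (v1 _ ⟨g, g1, ht, rfl⟩)), rfl⟩)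
      (Set.singleton_subset_iff.2 ⟨y, (k y).2 (sub_eq_zero.1 v2), rfl⟩)))))
  obtain ⟨θ, hθ⟩ := not_forall.1 (mt (RingHom.ext (f := H12.frobq hF) (g := .id F)) (H12.frobq_ne_id hF))
  have θ0 : θ ≠ 0 := fun e => hθ (by simp [e])
  have f0 : H12.frobq hF θ ≠ 0 := (_root_.map_ne_zero _).2 θ0
  obtain ⟨ζ, z1, z2⟩ : ∃ ζ : F, ζ ≠ 1 ∧ ζ * ζ ^ q = 1 := ⟨H12.frobq hF θ / θ, fun e => hθ ((div_eq_one_iff_eq θ0).1 e), by
    rw [← H12.frobq_apply hF, map_div₀, H12.frobq_frobq, div_mul_div_cancel₀ θ0, div_self f0]⟩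
  have z0 : ζ ≠ 0 := left_ne_zero_of_mul_eq_one z2
  have z4 : ζ⁻¹ * ζ⁻¹ ^ q = 1 := by rw [inv_pow, ← mul_inv, z2, inv_one]
  have dg : ∀ d : Fin 3 → F, ∏ i, d i = 1 → (∀ i, d i * d i ^ q = 1) → ∀ i, d i ≠ 1 → v i = 0 := fun d d1 d2 i d3 => by
    have := congrFun ((k ⟨⟨diagonal d, (det_diagonal ..).trans d1⟩, fun u w => Finset.sum_congr rfl fun j _ => by
      change (diagonal d *ᵥ u) j * (diagonal d *ᵥ w) j ^ q = _
      rw [mulVec_diagonal, mulVec_diagonal, mul_pow, mul_mul_mul_comm, d2, one_mul]⟩).1 (e (mem_top _))) i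
    change (diagonal d *ᵥ v) i = _ at this
    rw [mulVec_diagonal] at this
    exact ((mul_left_eq_self₀.1 this).resolve_left d3)
  have a := dg ![ζ, ζ⁻¹, 1] (by simp [Fin.prod_univ_three, z0]) (by simp [Fin.forall_fin_succ, z2, z4, -inv_pow])
  have b := dg ![1, ζ⁻¹, ζ] (by simp [Fin.prod_univ_three, z0]) (by simp [Fin.forall_fin_succ, z2, z4, -inv_pow])
  exact v0 (funext fun i => by
    fin_cases i
    exacts [a 0 z1, a 1 (inv_ne_one.2 z1), b 2 z1])

variable {G : Type u} [Group G] [Finite G] {D : Set G} {d x : G}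

theorem eq_bot_of_cyc {N : Subgroup G} [N.Normal] (h1 : N ≤ center G) (h2 : commutator G = ⊤) (h3 : pCore 2 G = ⊥)
    (h4 : ∀ p, [Fact p.Prime] → p ≠ 2 → ∀ P : Subgroup (G ⧸ N), IsPGroup p P → IsCyclic P) : N = ⊥ := by
  by_contra hn
  obtain ⟨p, hp, hd⟩ := Nat.exists_prime_and_dvd (mt card_eq_one.1 hn)
  haveI := Fact.mk hp
  obtain ⟨⟨z, hz⟩, o⟩ := exists_prime_orderOf_dvd_card' p hd
  rw [orderOf_mk] at o
  have z1 : z ≠ 1 := fun e => hp.one_lt.ne (by rw [← o, e, orderOf_one])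
  have q := isPGroup_zpowers (p := p) (k := 1) (x := z) (by rw [pow_one, ← o, pow_orderOf_eq_one])
  haveI : (zpowers z).Normal := normal_of_forall_cj_le fun g => by
    rw [cj_zpowers, mem_center_iff.1 (h1 hz), mul_inv_cancel_right]
  by_cases e : p = 2
  · subst e
    exact z1 (h3.le (le_pCore q (mem_zpowers z)))
  obtain ⟨P, hP⟩ := q.exists_le_sylow
  haveI := h4 p e _ (P.isPGroup'.map (QuotientGroup.mk' N))
  exact z1 ((H3.inf_commutator_inf_center_eq_bot P (MonoidHom.isMulCommutative_of_isCyclic_of_ker_le_center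
    ((QuotientGroup.mk' N).subgroupMap P) fun a ha => mem_center_iff.2 fun y => Subtype.ext (mem_center_iff.1
      (h1 ((QuotientGroup.eq_one_iff _).1 (congrArg Subtype.val ha))) y)) P.card_coprime_index).le
    ⟨⟨hP (mem_zpowers z), h2.ge (mem_top z)⟩, h1 hz⟩)

theorem Gn.cases (h : Gn D d x) (hc : Cl D) :
    (∃ (F : Type) (_ : Field F) (_ : Fintype F), _root_.CharP F 2 ∧ 4 ≤ Fintype.card F ∧
      Nonempty (G ≃* ProjectiveSpecialLinearGroup (Fin 2) F)) ∨ Lie.IsoSuzuki G ∨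
      ∃ n : ℕ, Nonempty (G ≃* DihedralGroup n) := by
  by_cases h0 : ∀ t ∈ D, Sm D d t → d = t
  · obtain ⟨e⟩ := S0206.result d x (h.ot.1.orderOf_eq d h.hd) (h.ot.1.orderOf_eq x h.hx) h.od.1
    exact .inr (.inr ⟨_, ⟨topEquiv.symm.trans ((MulEquiv.subgroupCongr (h.le (fun t ht hs => h0 t ht hs ▸
      subset_closure (Or.inl rfl)) (subset_closure (Or.inr rfl))).symm).trans e)⟩⟩)
  push Not at h0
  obtain ⟨t, ht, h1, h2⟩ := h0
  obtain ⟨a, b, h3, h4⟩ := h.xx ht h1 h2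
  have z : twoZCore G ≤ center G := fun g hg => mem_center_iff.2 fun k => by
    rw [← mul_inv_eq_one, ← mem_bot, ← h.o2, ← QuotientGroup.eq_one_iff]
    exact mul_inv_eq_one.2 (mem_center_iff.1 hg (QuotientGroup.mk' _ k))
  have k := fun h5 => (QuotientGroup.quotientBot.symm.trans (QuotientGroup.quotientMulEquivOfEq
    (eq_bot_of_cyc z (perfect h.ot.1 hc h4) h.o2 h5).symm) : G ≃* _)
  have c : ∀ {H : Type} [Group H] (e : G ⧸ twoZCore G ≃* H) (P : Subgroup (G ⧸ twoZCore G)),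
      IsCyclic (P.map e.toMonoidHom) → IsCyclic P := fun e P hP => (e.subgroupMap P).isCyclic.2 hP
  rcases (h.bl hc h3 h4).bender h.ot.1 h4 with ⟨F, _, _, ⟨n, n1, n2⟩, ⟨e⟩⟩ | ⟨F, _, _, m, m1, m2, ⟨e⟩⟩ |
    ⟨F, _, _, n, n1, n2, ⟨e⟩⟩
  · haveI := H11.charP_two_of_card n2
    exact .inl ⟨F, _, _, this, n2 ▸ Nat.pow_le_pow_right (n := 2) two_pos n1, ⟨(k fun p _ hp P hP => c e P
      (H25.psl2_cyclic_of_odd _ (H21.odd_of_pgroup hp (hP.map _)))).trans e⟩⟩
  · haveI := H15.Sz.charP_two m2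
    exact .inr (.inl ⟨F, _, _, m, m1, m2, ⟨(k fun p _ hp P hP => c e P
      ((H15.Sz.lieModel m1 m2).isCyclic_of_isPGroup hp (hP.map _))).trans e⟩⟩)
  · let f := e.toMonoidHom.comp (QuotientGroup.mk' _)
    refine (not_gen_psu n1 n2 (T := f '' {t | t ∈ D ∧ Sm D d t}) (x := f x) ?_ ?_
      (by rw [← map_mul, sq h.ot.1 h.hx, map_one]) ?_).elim
    · rintro _ ⟨t, ht, rfl⟩
      rw [← map_mul, sq h.ot.1 ht.1, map_one]
    · rintro _ ⟨t, ht, rfl⟩ _ ⟨s, hs, rfl⟩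
      rw [← map_mul, ← map_mul, (ht.2.symm.trans hs.2).co ht.1]
    · rw [← Set.image_singleton, ← Set.image_union, ← MonoidHom.map_closure, h.gen,
        map_top_of_surjective f (e.surjective.comp (QuotientGroup.mk'_surjective _))]

/-- the reduction to `X / O₂(X)` -/
theorem exists_gn (hD : IsOddTranspositionSet D) (hd : d ∈ D) (hx : x ∈ D) (ho : Od d x) {X : Subgroup G}
    (hX : closure (sameCommutingClass D d ∪ {x}) = X) :
    ∃ (D' : Set (X ⧸ pCore 2 X)) (d' x' : X ⧸ pCore 2 X), Gn D' d' x' ∧ Cl D' := by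
  have g0 : closure (Subtype.val ⁻¹' (sameCommutingClass D d ∪ {x}) : Set X) = ⊤ := by
    subst hX; exact closure_closure_coe_preimage
  let S : Set G := {y | ∃ g ∈ X, y = g * x * g⁻¹}
  have m : ∀ t ∈ sameCommutingClass D d, t ∈ X := fun t ht => hX ▸ subset_closure (Or.inl ht)
  have xX : x ∈ X := hX ▸ subset_closure (Or.inr rfl)
  have xS : x ∈ S := ⟨1, one_mem _, by simp⟩
  have SD : S ⊆ D := by rintro _ ⟨g, -, rfl⟩; exact hD.1.conj_mem x hx g
  have tS : sameCommutingClass D d ⊆ S := fun t ht => by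
    obtain ⟨k, e⟩ := ((mem_same.1 ht).2.od hD hd ht.1 hx ho).symm.exists_conj hD.1 hx ht.1
    exact ⟨_, pow_mem (mul_mem xX (m t ht)) k, e.symm⟩
  have dd : d ∈ sameCommutingClass D d := ⟨hd, rfl⟩
  have r := sub_root hD.1 SD (Y := X) (le_antisymm ((closure_le _).2 (by
      rintro _ ⟨g, hg, rfl⟩; exact mul_mem (mul_mem hg xX) (inv_mem hg)))
    (hX ▸ closure_mono (Set.union_subset tS (Set.singleton_subset_iff.2 xS))))
    (by rintro g hg _ ⟨k, hk, rfl⟩; exact ⟨g * k, mul_mem hg hk, by group⟩)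
    fun s hs t ht hf => (hD.2 s (SD hs) t (SD ht) hf).elim
  have cl : Cl (Subtype.val ⁻¹' S : Set X) := by
    rintro a ⟨g, hg, e⟩ b ⟨k, hk, e'⟩
    exact ⟨⟨k * g⁻¹, mul_mem hk (inv_mem hg)⟩, Subtype.ext (by simp [e, e', mul_assoc])⟩
  let f := QuotientGroup.mk' (pCore 2 X)
  have hf := QuotientGroup.mk'_surjective (pCore 2 X)
  have o : ∀ {a b : X}, Od (a : G) b → Od a b := fun h => ⟨fun e => h.1 (congrArg _ e), by
    rw [← orderOf_coe]; exact h.2⟩
  have o1 : ∀ {a b : X}, a.1 ∈ S → Od a b → Od (f a) (f b) := fun {a b} ha h => ⟨fun e => mul_ne_one r ha h.1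
    (eq_one_of_odd_of_isPGroup (isPGroup_pCore 2 X) ((QuotientGroup.eq_one_iff _).1 (show f _ = 1 by
      rw [map_mul, ← e, ← map_mul, sq r ha, map_one])) h.2), by
      rw [← map_mul]; exact h.2.of_dvd_nat (orderOf_map_dvd f _)⟩
  have od : Od (⟨d, m d dd⟩ : X) ⟨x, xX⟩ := o ho
  have r2 := image_root r f hf fun a ha e => by
    obtain ⟨g, hg⟩ := cl _ (tS dd : (⟨d, m d dd⟩ : X) ∈ _) a ha
    exact not_od_of_mem r (isPGroup_pCore 2 X) ha ((QuotientGroup.eq_one_iff _).1 e)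
      (r.conj_mem ⟨x, xX⟩ xS g) (hg ▸ od.conj g)
  have t2 : ∀ {a b : X}, a.1 ∈ S → b.1 ∈ S → (f a * f b = f b * f a ↔ a.1 * b = b * a) := fun {a b} ha hb =>
    ⟨fun e => (two hD (SD ha) (SD hb)).resolve_right fun h => (o1 ha (o h)).not_co r2 ⟨a, ha, rfl⟩ ⟨b, hb, rfl⟩ e,
      fun e => by rw [← map_mul, ← map_mul, (Subtype.ext e : a * b = b * a)]⟩
  refine ⟨_, f ⟨d, m d dd⟩, f ⟨x, xX⟩, ⟨⟨r2, ?_⟩, ⟨_, tS dd, rfl⟩, ⟨_, xS, rfl⟩, o1 (tS dd) od, ?_,
    pCore_quotient_pCore 2 X⟩, cl.image f⟩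
  · rintro _ ⟨a, ha, rfl⟩ _ ⟨b, hb, rfl⟩ e
    rcases two hD (SD ha) (SD hb) with h | h
    exacts [Fo.not_co r2 ⟨a, ha, rfl⟩ ⟨b, hb, rfl⟩ e ((t2 ha hb).2 h), (o1 ha (o h)).not_fo e]
  · rw [eq_top_iff, ← map_top_of_surjective f hf, ← g0, MonoidHom.map_closure]
    refine closure_mono ?_
    rintro _ ⟨t, ht | ht, rfl⟩
    · refine Or.inl ⟨⟨t, tS ht, rfl⟩, ?_⟩
      rintro _ ⟨e, he, rfl⟩
      rw [t2 he (tS dd), t2 he (tS ht)]
      exact (mem_same.1 ht).2 e (SD he)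
    · exact Or.inr (congrArg f (Subtype.ext ht))

end Cfsg.Agent.H24.OT
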