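import Cfsg.Agent.H24.Base6
import Cfsg.Agent.H9.Hol

/-! Failure of factorization for the abelian version of the Thompson subgroup. -/

set_option autoImplicit false

namespace Cfsg.Agent.H24

open Subgroup
open scoped commutatorElement MatrixGroups
open H9 (FFSet IsFF MinOff maxEA holRep holSub)

variable {G : Type*} [Group G] [Finite G] {p : ℕ} [hp : Fact p.Prime] {A H Q V W : Subgroup G}

theorem card_le_of_card_sq (hW : Nat.card W = p ^ 2) (hA : IsPGroup p A) (hn : A ≤ 𝐍[W]) :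
    Nat.card A ≤ p * Nat.card (A ⊓ 𝐂[W] : Subgroup G) := by
  have pW : IsPGroup p W := IsPGroup.of_card hW
  have W1 : W ≠ ⊥ := fun e => by
    rw [e, card_bot] at hW; exact (Nat.one_lt_pow two_ne_zero hp.out.one_lt).ne hW
  by_cases h : W ≤ 𝐂[A]
  · rw [inf_eq_left.2 (le_centralizer_iff.1 h)]; exact Nat.le_mul_of_pos_left _ hp.out.pos
  obtain ⟨w, hw, hw'⟩ := SetLike.not_le_iff_exists.1 h
  have e : (W ⊓ 𝐂[A]) ⊔ zpowers w = W := by
    have l := sup_le inf_le_left (zpowers_le.2 hw) (a := W ⊓ 𝐂[A])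
    refine eq_of_le_of_card_le l ?_
    have h1 := H9.mul_card_le_of_lt (pW.to_le l) (left_lt_sup.2 fun e => hw' (e (mem_zpowers w)).2)
    have h2 := H9.mul_card_le_of_lt (pW.to_le inf_le_left) (bot_lt_iff_ne_bot.2 (inf_centralizer_ne_bot pW hA hn W1))
    rw [card_bot, mul_one] at h2
    rw [hW, sq]; exact (Nat.mul_le_mul_left p h2).trans h1
  have h1 := H9.relIndex_le_of_forall (A := A) (B := A ⊓ 𝐂[W]) (C := ⊥) (X := ⁅W, A⁆) (fun a => ⁅w, a⁆)
    (fun a ha => commutator_mem_commutator hw ha) fun a ha b hb e' => by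
      have m := mul_mem (inv_mem ha) hb
      refine ⟨m, ?_⟩
      rw [← e, centralizer_sup, centralizer_zpowers]
      refine ⟨le_centralizer_iff.1 inf_le_right m, mem_centralizer_singleton_iff.2 ?_⟩
      rw [mem_bot, inv_mul_eq_one, commutatorElement_def, commutatorElement_def] at e'
      calc a⁻¹ * b * w = a⁻¹ * (w⁻¹ * (w * b * w⁻¹ * b⁻¹))⁻¹ * b := by group
        _ = w * (a⁻¹ * b) := by rw [← e']; group
  have h2 := H9.mul_card_le_of_lt pW (commutator_lt pW hA hn W1)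
  rw [hW, sq, Nat.mul_le_mul_left_iff hp.out.pos] at h2
  rw [relIndex_bot_left] at h1
  rw [← card_mul_relIndex (inf_le_left : A ⊓ 𝐂[W] ≤ A), mul_comm]
  exact Nat.mul_le_mul_right _ (h1.trans h2)

theorem best_of_comm (h : FFSet p V H Q) (hA : A ≤ H) (pA : IsPGroup p A) (hc : ⁅A, A⁆ ≤ 𝐂[V])
    (hm : ∀ B ≤ A, Nat.card B * Nat.card (V ⊓ 𝐂[B] : Subgroup G) ≤ Nat.card A * Nat.card (V ⊓ 𝐂[A] : Subgroup G)) :
    IsBestOffenderOn p V A := by
  induction A using WellFoundedLT.induction with | _ A ih => ?_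
  refine ⟨hm, hc, ?_⟩
  rcases eq_or_ne A ⊥ with rfl | A1
  · intro a ha; rw [mem_bot.1 ha, one_pow]; exact one_mem _
  have nA := hA.trans h.norm
  have pV := isPGroup_of_isElementaryAbelian h.ea
  have cA : A ≤ 𝐂[A] := le_centralizer_iff_commutator.2 (h.eq_bot ((commutator_le_of_le hA hA)) hc)
  obtain ⟨e1, e2⟩ := H9.offender_eq h.ea nA hc hm le_rfl
  have b1 : IsBestOffenderOn p V (A ⊓ 𝐂[⁅V, A⁆]) := by
    refine ⟨fun B hB => (hm B (hB.trans inf_le_left)).trans e2.le,
      (commutator_mono inf_le_left inf_le_left).trans hc, fun a ha v hv => ?_⟩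
    have m := commutator_mem_commutator hv ha.1
    have c : Commute ⁅a, v⁆ a := by
      rw [← commutatorElement_inv]; exact Commute.inv_left (ha.2 _ m)
    have := H9.commutatorElement_pow_left_of_commute c p
    rw [← commutatorElement_inv v a, inv_pow, h.ea.2 _ (commutator_le_left_of_le_normalizer nA m), inv_one] at this
    exact (commutatorElement_eq_one_iff_mul_comm.1 this).symm
  obtain ⟨B, hB, mB⟩ : ∃ B ≤ A, MinOff p V B := by
    by_contra! hn
    have := le_bot_iff.1 ((h.le_iSup_minOff (inf_le_left.trans hA) b1).trans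
      (iSup_le fun B => absurd B.2.2 (hn B (B.2.1.trans inf_le_left))))
    rw [this, centralizer_bot', inf_top_eq] at e1
    exact h.commutator_ne_bot hA A1 (H9.commutator_eq_bot_of_le_sup pV h.ea.1 nA
      (fun a ha => (isPGroup_iff.1 pA a ha).imp fun k (e : a ^ p ^ k = 1) => e ▸ one_mem _) e1.le)
  have fE := h.fac_of_isFF ⟨B, hB.trans hA, mB.best, mB.ne, mB.min, rfl⟩
  set W := ⁅V, ⁅Q, B⁆ ⊔ B⁆
  have nB : A ≤ 𝐍[B] := le_normalizer_of_le_centralizer (cA.trans (centralizer_anti hB))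
  have nW : A ≤ 𝐍[W] := le_normalizer_commutator nA
    (le_normalizer_sup (le_normalizer_commutator (hA.trans h.normal) nB) nB)
  have WV : W ≤ V := commutator_le_left_of_le_normalizer (fE.le.trans h.norm)
  have BW : ¬ B ≤ 𝐂[W] := fun e => mB.ne (by
    rw [eq_bot_iff.2 ((le_inf le_sup_right e).trans (h.fac_faith fE).le), commutator_bot_right])
  have c1 := card_le_of_card_sq fE.nat.card pA nW
  have c2 : p * Nat.card (V ⊓ 𝐂[A] : Subgroup G) ≤ Nat.card (V ⊓ 𝐂[A ⊓ 𝐂[W]] : Subgroup G) :=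
    H9.mul_card_le_of_lt (pV.to_le inf_le_left) (lt_of_le_of_ne (inf_le_inf_left _ (centralizer_anti inf_le_left))
      fun e => BW (hB.trans (le_centralizer_iff.1 ((le_inf WV (le_centralizer_iff.1 inf_le_right)).trans
        (e.ge.trans inf_le_right)))))
  have b2 := ih (A ⊓ 𝐂[W]) (lt_of_le_of_ne inf_le_left fun e => BW (hB.trans (e.ge.trans inf_le_right)))
    (inf_le_left.trans hA) (pA.to_le inf_le_left) ((commutator_mono inf_le_left inf_le_left).trans hc)
    fun B hB => (hm B (hB.trans inf_le_left)).trans ((Nat.mul_le_mul_right _ c1).trans (by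
      rw [mul_comm p, mul_assoc]; exact Nat.mul_le_mul_left _ c2))
  have l := sup_le inf_le_left hB (a := A ⊓ 𝐂[W])
  have e : A ⊓ 𝐂[W] ⊔ B = A := eq_of_le_of_card_le l (c1.trans
    (H9.mul_card_le_of_lt (pA.to_le l) (left_lt_sup.2 fun e => BW (e.trans inf_le_right))))
  intro a ha
  obtain ⟨x, hx, y, hy, rfl⟩ := (mem_sup_of_le_normalizer_right (inf_le_left.trans nB)).1 (e.ge ha)
  rw [Commute.mul_pow (cA (hB hy) x hx.1)]
  exact mul_mem (b2.2.2 x hx) (mB.best.2.2 y hy)

/-- `S₃` as `SL₂(2)` -/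
def s3m (σ : Equiv.Perm (Fin 3)) : SL(2, ZMod 2) :=
  ⟨!![![1, 0, 1] (σ⁻¹ 0), ![0, 1, 1] (σ⁻¹ 0); ![1, 0, 1] (σ⁻¹ 1), ![0, 1, 1] (σ⁻¹ 1)], by revert σ; decide +kernel⟩

theorem sl2_two_equiv : Nonempty (SL(2, ZMod 2) ≃* Equiv.Perm (Fin 3)) :=
  ⟨(MulEquiv.ofBijective (MonoidHom.mk' s3m (by decide +kernel))
    (show Function.Bijective s3m by decide +kernel)).symm⟩

theorem ff_prod (h : FFSet p V H Q) {Y : Subgroup G} {𝒜 : Set (Subgroup G)}
    (h𝒜 : ∀ A ∈ 𝒜, A ≤ H ∧ IsBestOffenderOn p V A) (hY : Y = ncl (sSup 𝒜) H) :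
    ∃ n, Nonempty (Y ≃* (Fin n → SL(2, ZMod p))) := by
  classical
  have nY : H ≤ 𝐍[Y] := hY ▸ le_normalizer_ncl _ _
  let ι := {E // IsFF p V H Q E ∧ E ≤ Y}
  have e : ⨆ E : ι, (E : Subgroup G) = Y := by
    refine le_antisymm (iSup_le fun E => E.2.2) (hY.le.trans (ncl_le (sSup_le fun A hA => ?_) ?_))
    · refine (h.le_iSup_minOff (h𝒜 A hA).1 (h𝒜 A hA).2).trans (iSup_le fun B => ?_)
      have l : (B : Subgroup G) ≤ Y := B.2.1.trans ((le_sSup hA).trans (hY ▸ le_ncl _ _))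
      exact le_iSup_of_le ⟨_, ⟨B, B.2.1.trans (h𝒜 A hA).1, B.2.2.best, B.2.2.ne, B.2.2.min, rfl⟩,
        sup_le ((commutator_mono le_rfl l).trans (commutator_le_right_of_le_normalizer (h.le.trans nY))) l⟩ le_sup_right
    · refine le_normalizer_iff_cj_le.2 fun g hg => ?_
      rw [cj_iSup]
      exact iSup_le fun E => le_iSup_of_le ⟨_, E.2.1.conj (h.norm hg) (le_normalizer hg) (h.normal hg),
        cj_le_of_mem_normalizer E.2.2 (nY hg)⟩ le_rfl
  haveI : Fintype ι := Fintype.ofFinite ι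
  have hc : Pairwise fun E E' : ι => ∀ a b : G, a ∈ (E : Subgroup G) → b ∈ (E' : Subgroup G) → Commute a b :=
    fun E E' ne a b ha hb => (le_centralizer_iff_commutator.2
      (h.apart_of_isFF E.2.1 E'.2.1 fun e => ne (Subtype.ext e)).comm ha b hb).symm
  have hi' := h.iSupIndep_isFF.comp (f := fun E : ι => ⟨E, E.2.1⟩) fun E E' e => Subtype.ext (Subtype.ext_iff.1 e :)
  have hi : iSupIndep fun E : ι => (E : Subgroup G) := hi'
  refine ⟨Fintype.card ι, ⟨(MulEquiv.subgroupCongr (e.symm.trans (noncommPiCoprod_range (hcomm := hc)).symm)).trans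
    ((MonoidHom.ofInjective (injective_noncommPiCoprod_of_iSupIndep (hcomm := hc) hi)).symm.trans
      ((MulEquiv.piCongrRight fun E => (h.fac_equiv (h.fac_of_isFF E.2.1)).some).trans
        (MulEquiv.arrowCongr (Fintype.equivFin ι) (MulEquiv.refl _))))⟩⟩

/-- The normal closure of the abelian Thompson subgroup acts on `⟨Z(T)^G⟩` as a product of copies of `SL₂(p)`. -/
theorem tfa (hs : IsPSolvable p G) (hc : CharP p (⊤ : Subgroup G)) {T : Subgroup G} (hT : SylIn p T ⊤) :
    ∃ n, Nonempty (ncl (thompsonSubgroupOf 0 T) ⊤ ⧸ (𝐂[T ⊓ 𝐂[T]].normalCore).subgroupOf _ ≃*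
      (Fin n → SL(2, ZMod p))) := by
  set C := 𝐂[T ⊓ 𝐂[T]].normalCore
  set V := ncl (T ⊓ 𝐂[T]) ⊤
  have QT := hT.pCoreOf_le
  have V1 : V ≤ pCoreOf p ⊤ ⊓ 𝐂[pCoreOf p ⊤] := ncl_le
    (le_inf ((le_inf le_top inf_le_right).trans (hc.inf_centralizer_le QT)) (inf_le_right.trans (centralizer_anti QT)))
    (top_le_normalizer _)
  have cV : V ≤ 𝐂[V] := V1.trans (inf_le_right.trans (centralizer_anti (V1.trans inf_le_left)))
  have pV : IsPGroup p V := (isPGroup_pCoreOf p ⊤).to_le (V1.trans inf_le_left)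
  haveI := isMulCommutative_iff_le_centralizer.2 cV
  have e1 : C = 𝐂[V] := le_antisymm
    (le_centralizer_iff.1 (ncl_le (le_centralizer_iff.1 (normalCore_le _)) (top_le_normalizer _)))
    (normal_le_normalCore.2 (centralizer_anti (le_ncl _ _)))
  have e2 : pCoreMod p ⊤ C ≤ C := by
    haveI := top_le_normalizer_iff.1 (le_normalizer_pCoreMod (p := p) (top_le_normalizer ⊤) (top_le_normalizer C))
    refine normal_le_normalCore.2 (((hT.inf_normal le_top (top_le_normalizer (pCoreMod p ⊤ C))).sup_eq_of_pGrpMod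
      (le_top.trans_eq' (top_inf_eq C) |> fun _ => (top_inf_eq C).ge.trans (inf_le_pCoreMod (top_le_normalizer C)))
      (le_top.trans (top_le_normalizer C)) (pGrpMod_pCoreMod (top_le_normalizer C))).ge.trans
      (sup_le (normalCore_le _) (inf_le_left.trans (le_centralizer_iff.1 inf_le_right))))
  set W := omegaOne p V
  haveI : W.Normal := top_le_normalizer_iff.1 (le_normalizer_omegaOne (top_le_normalizer V))
  have WV : W ≤ V := H9.omegaOne_le p V
  have eW : IsElementaryAbelian p W := H9.isEA_omegaOne inferInstance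
  have e3 : 𝐂[W] = C := by
    refine le_antisymm ((le_pCoreMod le_top (top_le_normalizer _) (pResidualOf_le_iff.1
      (pResidualOf_le_iff_forall.2 fun x hx co => ?_))).trans e2) (e1.le.trans (centralizer_anti WV))
    refine e1.ge (H1.le_centralizer_of_centralizes_prime_order (A := zpowers x) (le_top.trans (top_le_normalizer V))
      (by rw [Nat.card_zpowers]; exact coprime_card_of_isPGroup pV co) (fun v hv pr => ?_) (mem_zpowers x))
    obtain ⟨k, hk⟩ := orderOf_eq_pow_iff.2 (isPGroup_iff.1 pV v hv)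
    refine le_centralizer_iff.1 (zpowers_le.2 hx) (H9.mem_omegaOne_of hv ?_)
    rw [← pow_orderOf_eq_one v, (Nat.prime_dvd_prime_iff_eq pr hp.out).1 (pr.dvd_of_dvd_pow hk.dvd)]
  have hF := H9.ffSet_holRep hs eW (pCore_quotient_eq_bot_iff'.2 (e3 ▸ e2))
  have WT : W ≤ T := WV.trans (V1.trans (inf_le_left.trans QT))
  obtain ⟨n, ⟨e⟩⟩ := ff_prod hF (Y := (ncl (thompsonSubgroupOf 0 T) ⊤).map (holRep W))
    (𝒜 := (·.map (holRep W)) '' maxEA 0 T) (by
      rintro _ ⟨A, hA, rfl⟩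
      have cA : A ≤ 𝐂[A] := isMulCommutative_iff_le_centralizer.1 hA.2.1.1
      refine ⟨map_le_range _ _, best_of_comm hF (map_le_range _ _) ((hT.pgrp.to_le hA.1).map _) ?_ fun B hB => ?_⟩
      · rw [← map_commutator, le_centralizer_iff_commutator.1 cA, Subgroup.map_bot]; exact bot_le
      have e : (B.comap (holRep W) ⊓ A).map (holRep W) = B := by rw [H10.map_comap_inf, inf_eq_left.2 hB]
      have h1 : ∀ B ≤ A, Nat.card B * Nat.card (W ⊓ 𝐂[B] : Subgroup G) ≤
          Nat.card A * Nat.card (W ⊓ 𝐂[A] : Subgroup G) := fun B hB => by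
        have hc : B ≤ 𝐂[W ⊓ 𝐂[B]] := le_centralizer_iff.mp inf_le_right
        rw [← card_sup_mul_card_inf (le_normalizer_of_le_centralizer hc)]
        exact Nat.mul_le_mul (hA.2.2 _ (sup_le (hB.trans hA.1) (inf_le_left.trans WT)) (H9.isEA_zero.2
          (isMulCommutative_sup (isMulCommutative_of_le hB hA.2.1.1) (isMulCommutative_of_le inf_le_left eW.1) hc)))
          (card_le_of_le' (le_inf (inf_le_right.trans inf_le_left) (inf_le_left.trans (hB.trans cA))))
      replace h1 := h1 (B.comap (holRep W) ⊓ A) inf_le_right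
      rw [← H10.card_map_mul_card_inf_ker (holRep W) A,
        ← H10.card_map_mul_card_inf_ker (holRep W) (_ ⊓ A), inf_right_comm,
        inf_eq_right.2 (ker_le_comap _ _), inf_comm (holRep W).ker A, ← H9.card_holSub_inf A,
        ← H9.card_holSub_inf (_ ⊓ A), e, mul_right_comm, mul_right_comm (Nat.card (A.map _))] at h1
      exact Nat.le_of_mul_le_mul_right h1 (card_pos' _))
    (by rw [map_ncl, H9.thompsonOf_eq_sSup, (gc_map_comap _).l_sSup, sSup_image, MonoidHom.range_eq_map])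
  refine ⟨n, ⟨((QuotientGroup.quotientMulEquivOfEq ?_).trans (QuotientGroup.quotientKerEquivOfSurjective _
    ((holRep W).subgroupMap_surjective _))).trans e⟩⟩
  rw [ker_subgroupMap, H9.ker_holRep, e3]

end Cfsg.Agent.H24
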